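import Cfsg.Agent.Lib.Steinberg.Gen.PureW

/-! The tables of the pure lifting for the type E6 -/

set_option autoImplicit false

namespace Cfsg.Agent.Lib.Steinberg.Gen.PureData.E6

open Cfsg.Lie

/-- The links. -/
def linkL : List (ℕ × ℕ × ℕ × ℕ × ℕ) :=
  [(47, 69, 39, 46, 70), (48, 68, 40, 46, 70), (49, 67, 41, 46, 70), (50, 66, 43, 46, 70), (51, 65, 44, 46, 70), (52, 64, 45, 46, 70), (61, 55, 58, 46, 70), (62, 54, 59, 46, 70), (63, 53, 60, 46, 70), (53, 63, 44, 47, 69), (54, 62, 45, 47, 69), (64, 52, 59, 47, 69), (65, 51, 60, 47, 69), (55, 61, 45, 48, 68), (66, 50, 60, 48, 68), (67, 49, 59, 50, 66), (68, 48, 60, 50, 66), (69, 47, 60, 51, 65), (70, 46, 60, 53, 63)]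

/-- The pairs of the covering. -/
def covL : List (ℕ × ℕ) :=
  [(46, 70), (47, 69), (48, 68), (49, 67)]

/-- The steps of the reaching. -/
def bfsL : List (ℕ × ℕ) :=
  [(70, 1), (69, 3), (66, 2), (68, 4), (55, 0), (65, 4), (67, 5), (54, 4), (63, 3), (64, 5), (52, 3), (53, 5), (60, 1), (62, 5), (45, 1), (49, 2), (51, 5), (59, 5), (61, 4), (41, 2), (44, 5), (48, 5), (50, 4), (58, 4), (38, 3), (40, 5), (43, 4), (47, 4), (57, 3), (36, 4), (37, 5), (39, 4), (42, 3), (46, 3), (56, 2), (35, 5), (34, 4), (32, 3), (29, 2), (25, 1), (15, 0), (33, 4), (31, 3), (24, 1), (28, 2), (14, 0), (30, 3), (23, 1), (27, 2), (21, 2), (13, 0), (22, 1), (26, 2), (20, 2), (12, 0), (10, 0), (19, 2), (11, 0), (9, 0), (18, 3), (8, 0), (17, 3), (7, 3), (6, 3), (16, 4), (4, 2), (3, 2), (5, 4), (2, 4), (1, 3), (0, 1)]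

set_option maxHeartbeats 0

theorem c1 : 72 = chevE6.nroots := by decide +kernel
theorem c2 : shC chevE6 72 = true := by decide +kernel
theorem c3 : symC chevE6 72 = true := by decide +kernel
theorem c4 : puC 72 chevE6.chainEntry 46 70 71 (1) = true := by decide +kernel
theorem c5 : nlC 72 chevE6.chainEntry 70 71 = true := by decide +kernel
theorem c6 : lnkC 72 chevE6.chainEntry 39 46 47 69 70 71 (-1) = true := by decide +kernel
theorem c7 : connChk 72 chevE6.chainEntry 71 [(46, 70)] linkL = true := by decide +kernel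
theorem c8 : allChk chevE6 72 71 ((46, 70) :: linkL.map fun q => (q.1, q.2.1)) = true := by decide +kernel
theorem c9 : covChk chevE6 72 chevE6.chainEntry 71 0 covL = true := by decide +kernel
theorem c10 : bfsChk chevE6 72 chevE6.rank (2 ^ 71) bfsL = 2 ^ 72 - 1 := by decide +kernel

theorem tbl : PureTbl chevE6 72 71 46 70 39 47 69 0 (1) (-1) linkL covL bfsL :=
  ⟨c1, c2, c3, c4, c5, c6, c7, c8, c9, c10⟩

end Cfsg.Agent.Lib.Steinberg.Gen.PureData.E6
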